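import Cfsg.Agent.Lib.Helper1.Cores
import Cfsg.Agent.Lib.Helper1.SZAb

set_option autoImplicit false
open Pointwise
open scoped commutatorElement

namespace Cfsg.Agent.Lib.Helper1.CxSelf

variable {G : Type*} [Group G] {p : ℕ} [hp : Fact p.Prime] {x : G}

theorem card_P (hx : orderOf x = p) : Nat.card (Subgroup.zpowers x) = p := by
  rw [Nat.card_zpowers, hx]

/-- any nontrivial element of `⟨x⟩` generates. -/
theorem mem_zpowers_of_ne_one (hx : orderOf x = p) {y z : G} (hy : y ∈ Subgroup.zpowers x) (hy1 : y ≠ 1)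
    (hz : z ∈ Subgroup.zpowers x) : z ∈ Subgroup.zpowers y := by
  have h := mem_zpowers_of_prime_card (card_P hx) (g := (⟨y, hy⟩ : Subgroup.zpowers x))
    (g' := ⟨z, hz⟩) (by intro h; exact hy1 (congrArg Subtype.val h))
  obtain ⟨m, hm⟩ := h
  exact ⟨m, by simpa using congrArg Subtype.val hm⟩

theorem le_of_mem_ne_one (hx : orderOf x = p) {y : G} (hy : y ∈ Subgroup.zpowers x) (hy1 : y ≠ 1)
    {H : Subgroup G} (hyH : y ∈ H) : Subgroup.zpowers x ≤ H := by
  intro z hz
  obtain ⟨m, rfl⟩ := mem_zpowers_of_ne_one hx hy hy1 hz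
  exact H.zpow_mem hyH m

theorem mem_of_commute (hx : orderOf x = p)
    (hC : Subgroup.centralizer ({x} : Set G) = Subgroup.zpowers x) {y g : G}
    (hy : y ∈ Subgroup.zpowers x) (hy1 : y ≠ 1) (hg : Commute g y) : g ∈ Subgroup.zpowers x := by
  rw [← hC, Subgroup.mem_centralizer_iff]
  intro h hh
  rw [Set.mem_singleton_iff] at hh
  subst hh
  obtain ⟨m, rfl⟩ := mem_zpowers_of_ne_one hx hy hy1 (Subgroup.mem_zpowers h)
  exact ((hg.zpow_right m).eq).symm

theorem x_ne_one (hx : orderOf x = p) : x ≠ 1 := by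
  rintro rfl
  rw [orderOf_one] at hx
  exact hp.out.one_lt.ne hx

theorem exists_sylow [Finite G] (hx : orderOf x = p)
    (hC : Subgroup.centralizer ({x} : Set G) = Subgroup.zpowers x) :
    ∃ P : Sylow p G, (P : Subgroup G) = Subgroup.zpowers x := by
  have hPp : IsPGroup p (Subgroup.zpowers x) :=
    IsPGroup.of_card (n := 1) (by rw [card_P hx, pow_one])
  obtain ⟨S, hS⟩ := hPp.exists_le_sylow
  refine ⟨S, le_antisymm ?_ hS⟩
  haveI : Nontrivial S := ⟨⟨x, hS (Subgroup.mem_zpowers x)⟩, 1, by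
    intro h; exact x_ne_one hx (congrArg Subtype.val h)⟩
  haveI := S.2.center_nontrivial
  obtain ⟨z, hz⟩ := exists_ne (1 : Subgroup.center S)
  have hz1 : ((z : S) : G) ≠ 1 := by
    intro h
    apply hz
    ext
    simpa using h
  have hzc : ∀ s : S, Commute (s : G) ((z : S) : G) := by
    intro s
    have := Subgroup.mem_center_iff.mp z.2 s
    exact congrArg Subtype.val this
  have hzP : ((z : S) : G) ∈ Subgroup.zpowers x := by
    rw [← hC, Subgroup.mem_centralizer_iff]
    intro h hh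
    rw [Set.mem_singleton_iff] at hh
    subst hh
    exact (hzc ⟨h, hS (Subgroup.mem_zpowers h)⟩).eq
  intro s hs
  exact mem_of_commute hx hC hzP hz1 (hzc ⟨s, hs⟩)

theorem mem_normalizer_of_conj_mem (hx : orderOf x = p) {y g : G}
    (hy : y ∈ Subgroup.zpowers x) (hy1 : y ≠ 1) (hg : g * y * g⁻¹ ∈ Subgroup.zpowers x) :
    g ∈ Subgroup.normalizer (Subgroup.zpowers x : Set G) := by
  rw [Subgroup.mem_normalizer_iff]
  intro h
  constructor
  · intro hh
    obtain ⟨m, rfl⟩ := mem_zpowers_of_ne_one hx hy hy1 hh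
    have : g * y ^ m * g⁻¹ = (g * y * g⁻¹) ^ m := by rw [conj_zpow]
    rw [this]
    exact Subgroup.zpow_mem _ hg m
  · intro hh
    have h1 : g * y * g⁻¹ ≠ 1 := by
      intro h
      apply hy1
      have : g * y = g := by simpa [mul_inv_eq_iff_eq_mul] using h
      simpa using this
    obtain ⟨m, hm⟩ := mem_zpowers_of_ne_one hx hg h1 hh
    have : h = y ^ m := by
      have h2 : g * y ^ m * g⁻¹ = g * h * g⁻¹ := by
        rw [← hm]; simp only []; rw [conj_zpow]
      simpa using h2.symm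
    rw [this]
    exact Subgroup.zpow_mem _ hy m

theorem commute_aux (hx : orderOf x = p) {n m : G}
    (hn : n ∈ Subgroup.normalizer (Subgroup.zpowers x : Set G))
    (hm : m ∈ Subgroup.normalizer (Subgroup.zpowers x : Set G)) :
    Commute ((m * n)⁻¹ * (n * m)) x := by
  have h1 := (Subgroup.mem_normalizer_iff.mp hn x).mp (Subgroup.mem_zpowers x)
  have h2 := (Subgroup.mem_normalizer_iff.mp hm x).mp (Subgroup.mem_zpowers x)
  obtain ⟨a, ha⟩ := h1
  obtain ⟨b, hb⟩ := h2
  simp only [] at ha hb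
  have e1 : n * m * x * (n * m)⁻¹ = x ^ (a * b) := by
    have : n * m * x * (n * m)⁻¹ = n * (m * x * m⁻¹) * n⁻¹ := by group
    rw [this, ← hb, ← conj_zpow, ← ha, ← zpow_mul]
  have e2 : m * n * x * (m * n)⁻¹ = x ^ (a * b) := by
    have : m * n * x * (m * n)⁻¹ = m * (n * x * n⁻¹) * m⁻¹ := by group
    rw [this, ← ha, ← conj_zpow, ← hb, ← zpow_mul, mul_comm]
  have e3 : n * m * x * (n * m)⁻¹ = m * n * x * (m * n)⁻¹ := e1.trans e2.symm
  show (m * n)⁻¹ * (n * m) * x = x * ((m * n)⁻¹ * (n * m))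
  have : (m * n)⁻¹ * (n * m * x * (n * m)⁻¹) * (n * m) = (m * n)⁻¹ * (m * n * x * (m * n)⁻¹) * (n * m) :=
    congrArg (fun w => (m * n)⁻¹ * w * (n * m)) e3
  have l : (m * n)⁻¹ * (n * m * x * (n * m)⁻¹) * (n * m) = (m * n)⁻¹ * (n * m) * x := by group
  have r : (m * n)⁻¹ * (m * n * x * (m * n)⁻¹) * (n * m) = x * ((m * n)⁻¹ * (n * m)) := by group
  rw [l, r] at this
  exact this

/-- `N/P` is abelian. -/
theorem commutator_normalizer_le (hx : orderOf x = p)
    (hC : Subgroup.centralizer ({x} : Set G) = Subgroup.zpowers x) :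
    ⁅Subgroup.normalizer (Subgroup.zpowers x : Set G), Subgroup.normalizer (Subgroup.zpowers x : Set G)⁆
      ≤ Subgroup.zpowers x := by
  rw [Subgroup.commutator_le]
  intro n hn m hm
  apply mem_of_commute hx hC (Subgroup.mem_zpowers x) (x_ne_one hx)
  have := commute_aux hx (inv_mem hn) (inv_mem hm)
  have e : ⁅n, m⁆ = (m⁻¹ * n⁻¹)⁻¹ * (n⁻¹ * m⁻¹) := by
    rw [commutatorElement_def]; group
  rw [e]
  exact this

theorem le_commutator_of_disjoint [Finite G]
    (hC : Subgroup.centralizer ({x} : Set G) = Subgroup.zpowers x) {S H : Subgroup G}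
    (hS : S.Normal) (hd : S ⊓ Subgroup.zpowers x = ⊥) (hSH : S ≤ H) (hxH : x ∈ H) : S ≤ ⁅H, H⁆ := by
  let φ : S → S := fun s => ⟨(s : G)⁻¹ * (x * s * x⁻¹), S.mul_mem (S.inv_mem s.2) (hS.conj_mem _ s.2 x)⟩
  have hinj : Function.Injective φ := by
    intro a b hab
    have h1 : (a : G)⁻¹ * (x * a * x⁻¹) = (b : G)⁻¹ * (x * b * x⁻¹) := congrArg Subtype.val hab
    have h2 : (b : G) * (a : G)⁻¹ * x = x * ((b : G) * (a : G)⁻¹) := by
      have : (b : G) * ((a : G)⁻¹ * (x * a * x⁻¹)) * (x * (a : G)⁻¹) =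
          (b : G) * ((b : G)⁻¹ * (x * b * x⁻¹)) * (x * (a : G)⁻¹) := by rw [h1]
      have l : (b : G) * ((a : G)⁻¹ * (x * a * x⁻¹)) * (x * (a : G)⁻¹) = (b : G) * (a : G)⁻¹ * x := by group
      have r : (b : G) * ((b : G)⁻¹ * (x * b * x⁻¹)) * (x * (a : G)⁻¹) = x * ((b : G) * (a : G)⁻¹) := by group
      rw [l, r] at this
      exact this
    have h3 : (b : G) * (a : G)⁻¹ ∈ Subgroup.zpowers x := by
      rw [← hC, Subgroup.mem_centralizer_iff]
      intro h hh
      rw [Set.mem_singleton_iff] at hh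
      subst hh
      exact h2.symm
    have h4 : (b : G) * (a : G)⁻¹ ∈ S ⊓ Subgroup.zpowers x := ⟨S.mul_mem b.2 (S.inv_mem a.2), h3⟩
    rw [hd, Subgroup.mem_bot, mul_inv_eq_one] at h4
    exact Subtype.ext h4.symm
  have hsurj := Finite.injective_iff_surjective.mp hinj
  intro s hs
  obtain ⟨a, ha⟩ := hsurj ⟨s, hs⟩
  have : s = ⁅(a : G)⁻¹, x⁆ := by
    have := congrArg Subtype.val ha
    rw [commutatorElement_def]
    rw [← show (a : G)⁻¹ * (x * a * x⁻¹) = s from this]
    group
  rw [this]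
  exact Subgroup.commutator_mem_commutator (H.inv_mem (hSH a.2)) hxH

theorem exists_conj_mem [Finite G] (hx : orderOf x = p)
    (hC : Subgroup.centralizer ({x} : Set G) = Subgroup.zpowers x) {g : G} (hg : orderOf g = p) :
    ∃ h : G, h * g * h⁻¹ ∈ Subgroup.zpowers x := by
  obtain ⟨P, hP⟩ := exists_sylow hx hC
  have hPp : IsPGroup p (Subgroup.zpowers g) :=
    IsPGroup.of_card (n := 1) (by rw [card_P hg, pow_one])
  obtain ⟨Q, hQ⟩ := hPp.exists_le_sylow
  obtain ⟨h, hh⟩ := MulAction.exists_smul_eq G Q P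
  refine ⟨h, ?_⟩
  rw [← hP, ← hh, Sylow.coe_subgroup_smul]
  exact Subgroup.smul_mem_pointwise_smul _ (MulAut.conj h) _ (hQ (Subgroup.mem_zpowers g))

theorem orderOf_of_mem (hx : orderOf x = p) {y : G} (hy : y ∈ Subgroup.zpowers x) (hy1 : y ≠ 1) :
    orderOf y = p := by
  have h := orderOf_dvd_of_mem_zpowers hy
  rw [hx] at h
  rcases (Nat.dvd_prime hp.out).mp h with h | h
  · exact absurd (orderOf_eq_one_iff.mp h) hy1
  · exact h

theorem conj_ne_one {g y : G} (hy : y ≠ 1) : g * y * g⁻¹ ≠ 1 := by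
  intro h
  apply hy
  have : g * y = g := by simpa [mul_inv_eq_iff_eq_mul] using h
  simpa using this

theorem ne_one_of_orderOf {g : G} (hg : orderOf g = p) : g ≠ 1 := x_ne_one hg

theorem t_mul_e [Finite G] (hx : orderOf x = p)
    (hC : Subgroup.centralizer ({x} : Set G) = Subgroup.zpowers x) :
    Nat.card {C : ConjClasses G // ∃ g ∈ C.carrier, orderOf g = p} *
      (Subgroup.zpowers x).relIndex (Subgroup.normalizer (Subgroup.zpowers x : Set G)) = p - 1 := by
  classical
  haveI := Fintype.ofFinite G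
  haveI := Fintype.ofFinite (ConjClasses G)
  obtain ⟨N, hN⟩ : ∃ N, N = Subgroup.normalizer (Subgroup.zpowers x : Set G) := ⟨_, rfl⟩
  rw [← hN]
  let s : Finset G := Finset.univ.filter (fun y => y ∈ Subgroup.zpowers x ∧ y ≠ 1)
  let T : Finset (ConjClasses G) := Finset.univ.filter (fun C => ∃ g ∈ C.carrier, orderOf g = p)
  have hs : s.card = p - 1 := by
    rw [← Set.ncard_coe_finset]
    have : (↑s : Set G) = (Subgroup.zpowers x : Set G) \ {1} := by
      ext y
      simp [s]
    rw [this, Set.ncard_sdiff_singleton_of_mem (Subgroup.one_mem _)]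
    have : (Subgroup.zpowers x : Set G).ncard = p := by
      rw [← card_P hx]; rfl
    rw [this]
  have hT : T.card = Nat.card {C : ConjClasses G // ∃ g ∈ C.carrier, orderOf g = p} := by
    rw [Nat.card_eq_fintype_card, Fintype.card_subtype]
  have hmaps : Set.MapsTo (ConjClasses.mk : G → ConjClasses G) s T := by
    intro y hy
    simp only [s, T, Finset.coe_filter, Finset.mem_univ, true_and, Set.mem_setOf_eq] at hy ⊢
    exact ⟨y, ConjClasses.mem_carrier_mk, orderOf_of_mem hx hy.1 hy.2⟩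
  have hfib : ∀ b ∈ T, (s.filter (fun a => ConjClasses.mk a = b)).card = (Subgroup.zpowers x).relIndex N := by
    intro b hb
    simp only [T, Finset.mem_filter, Finset.mem_univ, true_and] at hb
    obtain ⟨g, hgb, hg⟩ := hb
    obtain ⟨h, hh⟩ := exists_conj_mem hx hC hg
    obtain ⟨y0, hy0⟩ : ∃ y0, y0 = h * g * h⁻¹ := ⟨_, rfl⟩
    rw [← hy0] at hh
    have hy1 : y0 ≠ 1 := by rw [hy0]; exact conj_ne_one (ne_one_of_orderOf hg)
    have hb' : ConjClasses.mk y0 = b := by
      rw [← ConjClasses.mem_carrier_iff_mk_eq.mp hgb, ConjClasses.mk_eq_mk_iff_isConj, isConj_comm, isConj_iff]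
      exact ⟨h, hy0.symm⟩
    letI : MulAction N G := MulAction.compHom G ((MulAut.conj).comp N.subtype)
    have hsm : ∀ (n : N) (g : G), n • g = n * g * (n : G)⁻¹ := fun _ _ => rfl
    have hstab : MulAction.stabilizer N y0 = (Subgroup.zpowers x).subgroupOf N := by
      ext n
      rw [MulAction.mem_stabilizer_iff, Subgroup.mem_subgroupOf, hsm]
      constructor
      · intro hn
        apply mem_of_commute hx hC hh hy1
        show (n : G) * y0 = y0 * n
        rw [mul_inv_eq_iff_eq_mul] at hn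
        exact hn
      · intro hn
        obtain ⟨i, hi⟩ := hn
        obtain ⟨j, hj⟩ := hh
        simp only [] at hi hj
        rw [← hi, ← hj, mul_inv_eq_iff_eq_mul, zpow_mul_comm]
    have horb : (↑(s.filter (fun a => ConjClasses.mk a = b)) : Set G) = MulAction.orbit N y0 := by
      ext z
      simp only [s, Finset.coe_filter, Finset.mem_filter, Finset.mem_univ, true_and, Set.mem_setOf_eq,
        MulAction.mem_orbit_iff]
      constructor
      · rintro ⟨⟨hz, hz1⟩, hzb⟩
        rw [← hb', ConjClasses.mk_eq_mk_iff_isConj, isConj_comm, isConj_iff] at hzb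
        obtain ⟨c, hc⟩ := hzb
        have hcN : c ∈ N := by
          rw [hN]
          exact mem_normalizer_of_conj_mem hx hh hy1 (by rw [hc]; exact hz)
        exact ⟨⟨c, hcN⟩, hc⟩
      · rintro ⟨n, hn⟩
        rw [hsm] at hn
        have hn2 : (n : G) ∈ Subgroup.normalizer (Subgroup.zpowers x : Set G) := hN ▸ n.2
        refine ⟨⟨?_, ?_⟩, ?_⟩
        · rw [← hn]
          exact (Subgroup.mem_normalizer_iff.mp hn2 y0).mp hh
        · rw [← hn]; exact conj_ne_one hy1
        · rw [← hb', ConjClasses.mk_eq_mk_iff_isConj, isConj_comm, isConj_iff]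
          exact ⟨n, hn⟩
    rw [← Set.ncard_coe_finset, horb, ← MulAction.index_stabilizer, hstab]
    rfl
  rw [← hs, Finset.card_eq_sum_card_fiberwise hmaps, Finset.sum_congr rfl hfib, Finset.sum_const,
    smul_eq_mul, hT]

omit hp in
theorem commutator_sup_le {A B S : Subgroup G} [S.Normal] (h : ⁅A, A⁆ ≤ B) :
    ⁅A ⊔ S, A ⊔ S⁆ ≤ B ⊔ S := by
  have h1 : (⁅A ⊔ S, A ⊔ S⁆).map (QuotientGroup.mk' S) ≤ B.map (QuotientGroup.mk' S) := by
    rw [Subgroup.map_commutator, Subgroup.map_sup, QuotientGroup.map_mk'_self, sup_bot_eq,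
      ← Subgroup.map_commutator]
    exact Subgroup.map_mono h
  have h2 := Subgroup.comap_mono (f := QuotientGroup.mk' S) h1
  rw [Subgroup.comap_map_eq, Subgroup.comap_map_eq, QuotientGroup.ker_mk'] at h2
  exact le_trans le_sup_left h2

theorem le_commutator_of_ne (hx : orderOf x = p)
    (hC : Subgroup.centralizer ({x} : Set G) = Subgroup.zpowers x)
    (he : (Subgroup.zpowers x).relIndex (Subgroup.normalizer (Subgroup.zpowers x : Set G)) ≠ 1) :
    Subgroup.zpowers x ≤ commutator G := by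
  rw [Ne, Subgroup.relIndex_eq_one, SetLike.not_le_iff_exists] at he
  obtain ⟨n, hn, hnP⟩ := he
  have h1 : ⁅n, x⁆ ∈ Subgroup.zpowers x := by
    rw [commutatorElement_def]
    exact Subgroup.mul_mem _ ((Subgroup.mem_normalizer_iff.mp hn x).mp (Subgroup.mem_zpowers x))
      (Subgroup.inv_mem _ (Subgroup.mem_zpowers x))
  have h2 : ⁅n, x⁆ ≠ 1 := by
    intro h
    rw [commutatorElement_eq_one_iff_commute] at h
    exact hnP (mem_of_commute hx hC (Subgroup.mem_zpowers x) (x_ne_one hx) h)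
  apply le_of_mem_ne_one hx h1 h2
  rw [commutator_def]
  exact Subgroup.commutator_mem_commutator (Subgroup.mem_top _) (Subgroup.mem_top _)

theorem frattini [Finite G] (hx : orderOf x = p)
    (hC : Subgroup.centralizer ({x} : Set G) = Subgroup.zpowers x) {D : Subgroup G} [D.Normal]
    (hPD : Subgroup.zpowers x ≤ D) : Subgroup.normalizer (Subgroup.zpowers x : Set G) ⊔ D = ⊤ := by
  obtain ⟨P, hP⟩ := exists_sylow hx hC
  have h1 : Subgroup.normalizer ((P : Subgroup G) : Set G) ⊔ D = ⊤ :=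
    Sylow.normalizer_sup_eq_top' P (N := D) (hP ▸ hPD)
  rw [hP] at h1
  exact h1

theorem index_commutator_dvd [Finite G] (hx : orderOf x = p)
    (hC : Subgroup.centralizer ({x} : Set G) = Subgroup.zpowers x)
    (hPG : Subgroup.zpowers x ≤ commutator G) :
    (commutator G).index ∣
      (Subgroup.zpowers x).relIndex (Subgroup.normalizer (Subgroup.zpowers x : Set G)) := by
  have h1 := frattini hx hC hPG
  rw [← Subgroup.relIndex_top_right, ← h1, Subgroup.relIndex_sup_right]
  exact Subgroup.relIndex_dvd_of_le_left _ hPG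

theorem commutator_of_e_one [Finite G] (hx : orderOf x = p)
    (hC : Subgroup.centralizer ({x} : Set G) = Subgroup.zpowers x)
    (he : (Subgroup.zpowers x).relIndex (Subgroup.normalizer (Subgroup.zpowers x : Set G)) = 1) :
    (commutator G).index = p ∧ commutator G ⊓ Subgroup.zpowers x = ⊥ := by
  obtain ⟨P, hP⟩ := exists_sylow hx hC
  rw [Subgroup.relIndex_eq_one] at he
  have hcomm : ∀ a ∈ Subgroup.zpowers x, ∀ b ∈ Subgroup.zpowers x, a * b = b * a := by
    rintro a ⟨i, rfl⟩ b ⟨j, rfl⟩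
    exact zpow_mul_comm x i j
  have hP' : Subgroup.normalizer ((P : Subgroup G) : Set G) ≤ Subgroup.centralizer ((P : Subgroup G) : Set G) := by
    rw [hP]
    intro n hn
    rw [Subgroup.mem_centralizer_iff]
    intro h hh
    exact hcomm h hh n (he hn)
  have hK := MonoidHom.ker_transferSylow_isComplement' P hP'
  obtain ⟨K, hKdef⟩ : ∃ K, K = (MonoidHom.transferSylow P hP').ker := ⟨_, rfl⟩
  rw [← hKdef, hP] at hK
  have hKn : K.Normal := by rw [hKdef]; infer_instance
  have hd : K ⊓ Subgroup.zpowers x = ⊥ := disjoint_iff.mp hK.disjoint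
  have hidx : K.index = p := by
    rw [hK.symm.index_eq_card, card_P hx]
  have h1 : K ≤ commutator G := by
    rw [commutator_def]
    exact le_commutator_of_disjoint hC hKn hd le_top (Subgroup.mem_top x)
  have h2 : commutator G ≤ K := by
    rw [commutator_def, Subgroup.commutator_le]
    intro a _ b _
    rw [hKdef, MonoidHom.mem_ker, map_commutatorElement, commutatorElement_eq_one_iff_commute]
    apply Subtype.ext
    exact hcomm _ (hP ▸ (MonoidHom.transferSylow P hP' a).2) _ (hP ▸ (MonoidHom.transferSylow P hP' b).2)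
  have h3 : commutator G = K := le_antisymm h2 h1
  rw [h3]
  exact ⟨hidx, hd⟩

theorem commutator_le_normalClosure [Finite G] (hx : orderOf x = p)
    (hC : Subgroup.centralizer ({x} : Set G) = Subgroup.zpowers x) :
    commutator G ≤ Subgroup.normalClosure (Subgroup.zpowers x : Set G) := by
  have hle : Subgroup.zpowers x ≤ Subgroup.normalClosure (Subgroup.zpowers x : Set G) :=
    Subgroup.subset_normalClosure
  have h1 := frattini hx hC hle
  have h2 := commutator_sup_le (S := Subgroup.normalClosure (Subgroup.zpowers x : Set G))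
    (commutator_normalizer_le hx hC)
  rw [h1, sup_eq_right.mpr hle] at h2
  rw [commutator_def]
  exact h2

theorem hyp_of_orderOf [Finite G] (hx : orderOf x = p)
    (hC : Subgroup.centralizer ({x} : Set G) = Subgroup.zpowers x) {y : G} (hy : orderOf y = p) :
    Subgroup.centralizer ({y} : Set G) = Subgroup.zpowers y := by
  obtain ⟨h, hh⟩ := exists_conj_mem hx hC hy
  have h1 : h * y * h⁻¹ ≠ 1 := conj_ne_one (ne_one_of_orderOf hy)
  apply le_antisymm
  · intro g hg
    rw [Subgroup.mem_centralizer_iff] at hg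
    have hg' := hg y rfl
    have h2 : Commute (h * g * h⁻¹) (h * y * h⁻¹) := by
      show h * g * h⁻¹ * (h * y * h⁻¹) = h * y * h⁻¹ * (h * g * h⁻¹)
      have l : h * g * h⁻¹ * (h * y * h⁻¹) = h * (g * y) * h⁻¹ := by group
      have r : h * y * h⁻¹ * (h * g * h⁻¹) = h * (y * g) * h⁻¹ := by group
      rw [l, r, hg']
    have h3 := mem_of_commute hx hC hh h1 h2
    obtain ⟨m, hm⟩ := mem_zpowers_of_ne_one hx hh h1 h3
    simp only [] at hm
    rw [conj_zpow] at hm
    refine ⟨m, ?_⟩
    simpa using hm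
  · rw [Subgroup.zpowers_le, Subgroup.mem_centralizer_iff]
    intro z hz
    rw [Set.mem_singleton_iff] at hz
    rw [hz]

theorem normalClosure_le_of [Finite G] (hx : orderOf x = p)
    (hC : Subgroup.centralizer ({x} : Set G) = Subgroup.zpowers x) {D M : Subgroup G} [D.Normal]
    (hPD : Subgroup.zpowers x ≤ D) (hxM : x ∈ M) (hnorm : ∀ d ∈ D, ∀ m ∈ M, d * m * d⁻¹ ∈ M) :
    Subgroup.normalClosure (Subgroup.zpowers x : Set G) ≤ M := by
  have h1 := frattini hx hC hPD
  rw [sup_comm] at h1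
  rw [Subgroup.normalClosure, Subgroup.closure_le]
  intro z hz
  rw [Group.mem_conjugatesOfSet_iff] at hz
  obtain ⟨a, ha, haz⟩ := hz
  rw [isConj_iff] at haz
  obtain ⟨c, rfl⟩ := haz
  have hc : c ∈ (↑(D ⊔ Subgroup.normalizer (Subgroup.zpowers x : Set G)) : Set G) := by
    rw [h1]; trivial
  rw [Subgroup.normal_mul, Set.mem_mul] at hc
  obtain ⟨d, hd, n, hn, rfl⟩ := hc
  have h2 : n * a * n⁻¹ ∈ Subgroup.zpowers x := (Subgroup.mem_normalizer_iff.mp hn a).mp ha
  have h3 : n * a * n⁻¹ ∈ M := (Subgroup.zpowers_le.mpr hxM) h2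
  have h4 := hnorm d hd _ h3
  have e : d * n * a * (d * n)⁻¹ = d * (n * a * n⁻¹) * d⁻¹ := by group
  rw [SetLike.mem_coe, e]
  exact h4

theorem simple_aux [Finite G] (hx : orderOf x = p)
    (hC : Subgroup.centralizer ({x} : Set G) = Subgroup.zpowers x)
    (M : Subgroup G) (hSM : Cfsg.pPrimeCore p G ≤ M) (hMD : M ≤ commutator G)
    (hnorm : ∀ d ∈ commutator G, ∀ m ∈ M, d * m * d⁻¹ ∈ M) :
    M = Cfsg.pPrimeCore p G ∨ M = commutator G := by
  by_cases hpM : p ∣ Nat.card M
  · right
    obtain ⟨y, hy⟩ := exists_prime_orderOf_dvd_card' p hpM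
    rw [← Subgroup.orderOf_coe] at hy
    have hCy := hyp_of_orderOf hx hC hy
    exact le_antisymm hMD (le_trans (commutator_le_normalClosure hy hCy)
      (normalClosure_le_of hy hCy (D := commutator G) (Subgroup.zpowers_le.mpr (hMD y.2)) y.2 hnorm))
  · left
    refine le_antisymm ?_ hSM
    have hcop : (Nat.card M).Coprime p := ((Nat.Prime.coprime_iff_not_dvd hp.out).mpr hpM).symm
    have hn0 : (M.subgroupOf (commutator G)).Normal := by
      constructor
      intro m hm d
      rw [Subgroup.mem_subgroupOf] at hm ⊢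
      exact hnorm d d.2 m hm
    have hc0 : (Nat.card (M.subgroupOf (commutator G))).Coprime p := by
      rw [Nat.card_congr (Subgroup.subgroupOfEquivOfLe hMD).toEquiv]
      exact hcop
    have h1 := le_pPrimeCore hn0 hc0
    haveI := pPrimeCore_characteristic (G := commutator G) p
    have h2 : ((Cfsg.pPrimeCore p (commutator G)).map (commutator G).subtype).Normal :=
      map_characteristic_normal _
    have h3 : (Nat.card ((Cfsg.pPrimeCore p (commutator G)).map (commutator G).subtype)).Coprime p := by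
      rw [Subgroup.card_map_of_injective (Subgroup.subtype_injective _)]
      exact pPrimeCore_coprime p
    have h4 := le_pPrimeCore h2 h3
    intro m hm
    apply h4
    exact ⟨⟨m, hMD hm⟩, h1 (Subgroup.mem_subgroupOf.mpr hm), rfl⟩

theorem coprime_of_disjoint [Finite G] (hx : orderOf x = p)
    (hC : Subgroup.centralizer ({x} : Set G) = Subgroup.zpowers x) {S : Subgroup G} (hS : S.Normal)
    (hd : S ⊓ Subgroup.zpowers x = ⊥) : (Nat.card S).Coprime p := by
  apply Nat.Coprime.symm
  rw [Nat.Prime.coprime_iff_not_dvd hp.out]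
  intro hpS
  obtain ⟨y, hy⟩ := exists_prime_orderOf_dvd_card' p hpS
  rw [← Subgroup.orderOf_coe] at hy
  obtain ⟨h, hh⟩ := exists_conj_mem hx hC hy
  have : h * y * h⁻¹ ∈ S ⊓ Subgroup.zpowers x := ⟨hS.conj_mem _ y.2 h, hh⟩
  rw [hd, Subgroup.mem_bot] at this
  exact conj_ne_one (ne_one_of_orderOf hy) this

theorem disjoint_of_coprime (hx : orderOf x = p) {S : Subgroup G}
    (hd : (Nat.card S).Coprime p) : S ⊓ Subgroup.zpowers x = ⊥ :=
  Subgroup.inf_eq_bot_of_coprime (by rw [card_P hx]; exact hd)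

theorem normalizer_inf_eq_bot (hx : orderOf x = p)
    (hC : Subgroup.centralizer ({x} : Set G) = Subgroup.zpowers x) {S : Subgroup G} (hS : S.Normal)
    (hd : S ⊓ Subgroup.zpowers x = ⊥) :
    Subgroup.normalizer (Subgroup.zpowers x : Set G) ⊓ S = ⊥ := by
  rw [eq_bot_iff]
  rintro s ⟨hsN, hsS⟩
  have h1 : ⁅s, x⁆ ∈ Subgroup.zpowers x := by
    rw [commutatorElement_def]
    exact Subgroup.mul_mem _ ((Subgroup.mem_normalizer_iff.mp hsN x).mp (Subgroup.mem_zpowers x))
      (Subgroup.inv_mem _ (Subgroup.mem_zpowers x))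
  have h2 : ⁅s, x⁆ ∈ S := by
    rw [commutatorElement_def]
    have : s * x * s⁻¹ * x⁻¹ = s * (x * s⁻¹ * x⁻¹) := by group
    rw [this]
    exact S.mul_mem hsS (hS.conj_mem _ (S.inv_mem hsS) x)
  have h3 : ⁅s, x⁆ ∈ S ⊓ Subgroup.zpowers x := ⟨h2, h1⟩
  rw [hd, Subgroup.mem_bot, commutatorElement_eq_one_iff_commute] at h3
  have h4 := mem_of_commute hx hC (Subgroup.mem_zpowers x) (x_ne_one hx) h3
  have h5 : s ∈ S ⊓ Subgroup.zpowers x := ⟨hsS, h4⟩
  rw [hd] at h5
  exact h5

theorem card_subgroups [Finite G] (hx : orderOf x = p)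
    (hC : Subgroup.centralizer ({x} : Set G) = Subgroup.zpowers x) :
    Nat.card {H : Subgroup G // Nat.card H = p} =
      (Subgroup.normalizer (Subgroup.zpowers x : Set G)).index := by
  obtain ⟨P, hP⟩ := exists_sylow hx hC
  have hm : p ^ (Nat.card G).factorization p = p := by
    rw [← P.card_eq_multiplicity, hP, card_P hx]
  have h1 : Nat.card (Sylow p G) = (Subgroup.normalizer ((P : Subgroup G) : Set G)).index :=
    Sylow.card_eq_index_normalizer P
  rw [hP] at h1
  rw [← h1]
  symm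
  apply Nat.card_eq_of_bijective
    (fun Q : Sylow p G => (⟨(Q : Subgroup G), by rw [Q.card_eq_multiplicity, hm]⟩ :
      {H : Subgroup G // Nat.card H = p}))
  constructor
  · intro Q1 Q2 h
    exact Sylow.ext (congrArg Subtype.val h)
  · rintro ⟨H, hH⟩
    exact ⟨Sylow.ofCard H (by rw [hH, hm]), rfl⟩

theorem card_normalizer (hx : orderOf x = p) :
    Nat.card (Subgroup.normalizer (Subgroup.zpowers x : Set G)) =
      p * (Subgroup.zpowers x).relIndex (Subgroup.normalizer (Subgroup.zpowers x : Set G)) := by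
  have := Subgroup.relIndex_mul_relIndex ⊥ (Subgroup.zpowers x)
    (Subgroup.normalizer (Subgroup.zpowers x : Set G)) bot_le Subgroup.le_normalizer
  rw [Subgroup.relIndex_bot_left, Subgroup.relIndex_bot_left, card_P hx] at this
  exact this.symm

end Cfsg.Agent.Lib.Helper1.CxSelf
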