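import Mathlib

set_option autoImplicit false

namespace Cfsg.Agent.Lib.Helper1.FixCoset

/-- An automorphism `x` of `p`-power order whose fixed-point subgroup `M` has index divisible by `p`
fixes a coset `g M ≠ M`. -/
theorem exists_fixed_coset {G : Type*} [Group G] [Finite G]
    (p : ℕ) [Fact p.Prime] (x : MulAut G) (hx : ∃ k : ℕ, orderOf x = p ^ k) (M : Subgroup G)
    (hM : ∀ g : G, g ∈ M ↔ x g = g) (hp : p ∣ M.index) : ∃ g : G, g ∉ M ∧ g⁻¹ * x g ∈ M := by
  let F : Subgroup (MulAut G) :=
    { carrier := {a | ∀ m ∈ M, a m = m}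
      one_mem' := fun _ _ => rfl
      mul_mem' := by
        intro a b ha hb m hm
        show a (b m) = m
        rw [hb m hm, ha m hm]
      inv_mem' := by
        intro a ha m hm
        have h1 : a⁻¹ (a m) = m := by
          show (a⁻¹ * a) m = m
          rw [inv_mul_cancel]; rfl
        rw [ha m hm] at h1
        exact h1 }
  have hxF : x ∈ F := fun m hm => (hM m).mp hm
  have hA : ∀ a ∈ Subgroup.zpowers x, ∀ m ∈ M, a m = m := fun a ha => (Subgroup.zpowers_le.mpr hxF) ha
  letI act : MulAction (Subgroup.zpowers x) (G ⧸ M) :=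
    { smul := fun a q => Quotient.map' (fun g => a.1 g) (by
        intro g h hgh
        rw [QuotientGroup.leftRel_apply] at hgh ⊢
        rw [← map_inv, ← map_mul, hA a.1 a.2 _ hgh]
        exact hgh) q
      one_smul := by
        intro q
        induction q using QuotientGroup.induction_on with
        | H g => rfl
      mul_smul := by
        intro a b q
        induction q using QuotientGroup.induction_on with
        | H g => rfl }
  have hsmul : ∀ (a : Subgroup.zpowers x) (g : G), a • (QuotientGroup.mk g : G ⧸ M) = QuotientGroup.mk (a.1 g) :=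
    fun a g => rfl
  have hpg : IsPGroup p (Subgroup.zpowers x) := by
    obtain ⟨k, hk⟩ := hx
    exact IsPGroup.of_card (n := k) (by rw [Nat.card_zpowers, hk])
  have hfix1 : (QuotientGroup.mk (1 : G) : G ⧸ M) ∈ MulAction.fixedPoints (Subgroup.zpowers x) (G ⧸ M) := by
    intro a
    rw [hsmul, map_one]
  obtain ⟨b, hb, hb1⟩ := hpg.exists_fixed_point_of_prime_dvd_card_of_fixed_point (G ⧸ M)
    (by rw [← Subgroup.index_eq_card]; exact hp) hfix1
  obtain ⟨g, rfl⟩ := QuotientGroup.mk_surjective b
  refine ⟨g, ?_, ?_⟩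
  · intro h
    apply hb1
    rw [QuotientGroup.eq]
    simpa using h
  · have h1 := hb ⟨x, Subgroup.mem_zpowers x⟩
    rw [hsmul] at h1
    exact QuotientGroup.eq.mp h1.symm

end Cfsg.Agent.Lib.Helper1.FixCoset
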