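import Cfsg.Agent.Lib.Helper1.FrobCount
import Cfsg.Agent.Lib.Helper1.Basic

set_option autoImplicit false

namespace Cfsg.Agent.Lib.Helper1.FrobSolv

universe u

theorem frobenius {G : Type*} [Group G] [Finite G] (m : ℕ) (hm : m ∣ Nat.card G) :
    m ∣ Nat.card {g : G // g ^ m = 1} := by
  have h := Cfsg.Agent.Lib.Helper1.FrobCount.main m (1 : G)
  rw [(Cfsg.Agent.Lib.Helper1.FrobCount.centralizer_eq_top_iff (1 : G)).mpr (Subgroup.one_mem _),
    Subgroup.card_top, Nat.gcd_eq_left hm] at h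
  exact h

theorem card_preimage {G : Type*} [Group G] (M : Subgroup G) [M.Normal] (k : ℕ) :
    Nat.card {x : G // (x : G ⧸ M) ^ k = 1} = Nat.card M * Nat.card {y : G ⧸ M // y ^ k = 1} := by
  have e := QuotientGroup.preimageMkEquivSubgroupProdSet M {y : G ⧸ M | y ^ k = 1}
  rw [← Nat.card_prod]
  exact Nat.card_congr e

theorem card_sol_pos {G : Type*} [Group G] [Finite G] (k : ℕ) : 0 < Nat.card {y : G // y ^ k = 1} := by
  haveI : Nonempty {y : G // y ^ k = 1} := ⟨⟨1, one_pow k⟩⟩
  exact Nat.card_pos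

theorem eq_of_subset_card {G : Type*} [Finite G] {s t : Set G} (h : s ⊆ t)
    (hc : Nat.card t ≤ Nat.card s) : s = t :=
  Set.eq_of_subset_of_ncard_le h hc (Set.toFinite t)

theorem frob_solv : ∀ (N : ℕ) (G : Type u) [Group G] [Finite G] [Group.IsSolvable G], Nat.card G = N →
    ∀ n, n ∣ Nat.card G → Nat.card {x : G // x ^ n = 1} = n →
      ∃ H : Subgroup G, (H : Set G) = {x | x ^ n = 1} := by
  intro N
  induction N using Nat.strong_induction_on with
  | _ N ih =>
  intro G _ _ _ hN n hn hcount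
  by_cases htriv : (⊤ : Subgroup G) = ⊥
  · refine ⟨⊤, ?_⟩
    ext x
    have hx : x ∈ (⊤ : Subgroup G) := Subgroup.mem_top x
    rw [htriv, Subgroup.mem_bot] at hx
    simp [hx]
  have hsolT : Group.IsSolvable (⊤ : Subgroup G) := inferInstance
  obtain ⟨p, hp, M, -, hMn, hMne, -, hMp⟩ :=
    Cfsg.Agent.Lib.Helper1.exists_normal_elemAbelian _ (⊤ : Subgroup G) rfl inferInstance hsolT htriv
  haveI := Fact.mk hp
  have hMpg : IsPGroup p M := fun x => ⟨1, by
    apply Subtype.ext
    rw [pow_one]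
    exact hMp x x.2⟩
  obtain ⟨i, hi⟩ := IsPGroup.iff_card.mp hMpg
  have hi0 : i ≠ 0 := by
    rintro rfl
    rw [pow_zero] at hi
    exact hMne (Subgroup.card_eq_one.mp hi)
  have hgq : Nat.card G = Nat.card (G ⧸ M) * Nat.card M := Subgroup.card_eq_card_quotient_mul_card_subgroup M
  have hgpos : 0 < Nat.card G := Nat.card_pos
  have hnpos : 0 < n := Nat.pos_of_dvd_of_pos hn hgpos
  have hqpos : 0 < Nat.card M := Nat.card_pos
  have hq1 : 1 < Nat.card M := by
    rw [hi]; exact Nat.one_lt_pow hi0 hp.one_lt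
  have hcardQ : Nat.card (G ⧸ M) < N := by
    rw [← hN, hgq]
    exact lt_mul_of_one_lt_right Nat.card_pos hq1
  have hpq : p ∣ Nat.card M := by rw [hi]; exact dvd_pow_self p hi0
  by_cases hpn : p ∣ n
  · -- case 1
    obtain ⟨d, hd⟩ : ∃ d, d = Nat.gcd n (Nat.card M) := ⟨_, rfl⟩
    obtain ⟨n', hn'⟩ : ∃ n', n' = n / d := ⟨_, rfl⟩
    have hdn : d ∣ n := hd ▸ Nat.gcd_dvd_left _ _
    have hdq : d ∣ Nat.card M := hd ▸ Nat.gcd_dvd_right _ _
    have hpd : p ∣ d := hd ▸ Nat.dvd_gcd hpn hpq
    have hdpos : 0 < d := Nat.pos_of_dvd_of_pos hdn hnpos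
    have hnn : n = n' * d := by rw [hn', Nat.div_mul_cancel hdn]
    have hn'pos : 0 < n' := by
      rcases Nat.eq_zero_or_pos n' with h | h
      · rw [h, zero_mul] at hnn; omega
      · exact h
    have hlcm : n' * Nat.card M ∣ Nat.card G := by
      have h1 : Nat.lcm n (Nat.card M) ∣ Nat.card G := Nat.lcm_dvd hn ⟨_, by rw [hgq, mul_comm]⟩
      have h2 := Nat.gcd_mul_lcm n (Nat.card M)
      rw [← hd] at h2
      have h3 : Nat.lcm n (Nat.card M) = n' * Nat.card M := by
        apply Nat.eq_of_mul_eq_mul_left hdpos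
        rw [h2, hnn]; ring
      rw [← h3]; exact h1
    have hn'Q : n' ∣ Nat.card (G ⧸ M) := by
      rw [hgq] at hlcm
      exact Nat.dvd_of_mul_dvd_mul_right hqpos hlcm
    have hF := frobenius (G := G ⧸ M) n' hn'Q
    have hLpos := card_sol_pos (G := G ⧸ M) n'
    have hsub : ∀ x : G, (x : G ⧸ M) ^ n' = 1 → x ^ n = 1 := by
      intro x hx
      rw [← QuotientGroup.mk_pow, QuotientGroup.eq_one_iff] at hx
      have h1 := hMp _ hx
      rw [← pow_mul] at h1
      obtain ⟨r, hr⟩ := hpd
      rw [hnn, hr, ← mul_assoc, pow_mul, h1, one_pow]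
    have hle : Nat.card {x : G // (x : G ⧸ M) ^ n' = 1} ≤ n := by
      rw [← hcount]
      exact Nat.card_le_card_of_injective
        (fun x : {x : G // (x : G ⧸ M) ^ n' = 1} => (⟨x.1, hsub x.1 x.2⟩ : {x : G // x ^ n = 1}))
        (fun a b h => Subtype.ext (congrArg (fun z : {x : G // x ^ n = 1} => z.1) h))
    rw [card_preimage] at hle
    have hn'L : n' ≤ Nat.card {y : G ⧸ M // y ^ n' = 1} := Nat.le_of_dvd hLpos hF
    have hqd : Nat.card M = d := by
      apply le_antisymm _ (Nat.le_of_dvd hqpos hdq)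
      have h1 : Nat.card M * n' ≤ n' * d := by
        calc Nat.card M * n' ≤ Nat.card M * Nat.card {y : G ⧸ M // y ^ n' = 1} := Nat.mul_le_mul_left _ hn'L
          _ ≤ n := hle
          _ = n' * d := hnn
      rw [mul_comm] at h1
      exact Nat.le_of_mul_le_mul_left h1 hn'pos
    have hL : Nat.card {y : G ⧸ M // y ^ n' = 1} = n' := by
      apply le_antisymm _ hn'L
      rw [hnn, hqd, mul_comm] at hle
      exact Nat.le_of_mul_le_mul_right hle hdpos
    obtain ⟨Hb, hHb⟩ := ih _ hcardQ (G ⧸ M) rfl n' hn'Q hL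
    refine ⟨Hb.comap (QuotientGroup.mk' M), ?_⟩
    apply eq_of_subset_card
    · intro x hx
      have h1 : (x : G ⧸ M) ∈ (Hb : Set (G ⧸ M)) := hx
      rw [hHb] at h1
      exact hsub x h1
    · have h1 : Nat.card ↑(↑(Hb.comap (QuotientGroup.mk' M)) : Set G) =
          Nat.card {x : G // (x : G ⧸ M) ^ n' = 1} := by
        apply Nat.card_congr
        refine Equiv.subtypeEquivRight ?_
        intro x
        have : x ∈ (↑(Hb.comap (QuotientGroup.mk' M)) : Set G) ↔ (x : G ⧸ M) ∈ (Hb : Set (G ⧸ M)) := Iff.rfl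
        rw [this, hHb]
        rfl
      rw [h1, card_preimage, hL, hqd, mul_comm, ← hnn]
      exact le_of_eq hcount
  · -- case 2
    have hcop : Nat.Coprime n (Nat.card M) := by
      rw [hi]
      exact Nat.Coprime.pow_right i ((Nat.Prime.coprime_iff_not_dvd hp).mpr hpn).symm
    have hnQ : n ∣ Nat.card (G ⧸ M) := by
      rw [hgq] at hn
      exact hcop.dvd_of_dvd_mul_right hn
    have hF := frobenius (G := G ⧸ M) n hnQ
    have hLpos := card_sol_pos (G := G ⧸ M) n
    have hsurj : Function.Surjective (fun x : {x : G // x ^ n = 1} =>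
        (⟨(x.1 : G ⧸ M), by rw [← QuotientGroup.mk_pow, x.2]; rfl⟩ : {y : G ⧸ M // y ^ n = 1})) := by
      rintro ⟨y, hy⟩
      obtain ⟨x, rfl⟩ := QuotientGroup.mk_surjective y
      have hb := Nat.gcd_eq_gcd_ab (Nat.card M) n
      rw [Nat.Coprime.symm hcop] at hb
      have hxM : x ^ n ∈ M := by
        rw [← QuotientGroup.eq_one_iff, QuotientGroup.mk_pow]; exact hy
      have hxq : (x ^ n) ^ (Nat.card M) = 1 := by
        have := pow_card_eq_one' (x := (⟨x ^ n, hxM⟩ : M))
        exact congrArg Subtype.val this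
      refine ⟨⟨x ^ ((Nat.card M : ℤ) * (Nat.card M).gcdA n), ?_⟩, ?_⟩
      · rw [← zpow_natCast, ← zpow_mul]
        have e : (Nat.card M : ℤ) * (Nat.card M).gcdA n * (n : ℤ) =
          ((n : ℤ) * (Nat.card M : ℤ)) * (Nat.card M).gcdA n := by ring
        rw [e, zpow_mul, zpow_mul, zpow_natCast, zpow_natCast, hxq, one_zpow]
      · apply Subtype.ext
        show ((x ^ ((Nat.card M : ℤ) * (Nat.card M).gcdA n) : G) : G ⧸ M) = (x : G ⧸ M)
        have e : (Nat.card M : ℤ) * (Nat.card M).gcdA n = 1 - (n : ℤ) * (Nat.card M).gcdB n := by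
          have : ((1 : ℕ) : ℤ) = (Nat.card M : ℤ) * (Nat.card M).gcdA n + (n : ℤ) * (Nat.card M).gcdB n := hb
          push_cast at this
          linarith
        rw [QuotientGroup.mk_zpow, e, zpow_sub, zpow_one, zpow_mul, zpow_natCast, hy, one_zpow, inv_one, mul_one]
    have hL : Nat.card {y : G ⧸ M // y ^ n = 1} = n := by
      apply le_antisymm _ (Nat.le_of_dvd hLpos hF)
      have := Nat.card_le_card_of_surjective _ hsurj
      rw [hcount] at this
      exact this
    obtain ⟨Hb, hHb⟩ := ih _ hcardQ (G ⧸ M) rfl n hnQ hL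
    obtain ⟨K, hK⟩ : ∃ K, K = Hb.comap (QuotientGroup.mk' M) := ⟨_, rfl⟩
    have hmemK : ∀ x : G, x ∈ K ↔ (x : G ⧸ M) ^ n = 1 := by
      intro x
      have : x ∈ K ↔ (x : G ⧸ M) ∈ (Hb : Set (G ⧸ M)) := by rw [hK]; rfl
      rw [this, hHb]
      rfl
    have hcK : Nat.card K = Nat.card M * n := by
      rw [← hL, ← card_preimage]
      apply Nat.card_congr
      exact Equiv.subtypeEquivRight hmemK
    have hLK : ∀ x : G, x ^ n = 1 → x ∈ K := by
      intro x hx
      rw [hmemK, ← QuotientGroup.mk_pow, hx]; rfl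
    by_cases hKtop : K = ⊤
    · have hg : Nat.card G = Nat.card M * n := by
        rw [← hcK, hKtop, Subgroup.card_top]
      have hidx : M.index = n := by
        have := Subgroup.card_mul_index M
        rw [hg] at this
        exact Nat.eq_of_mul_eq_mul_left hqpos this
      obtain ⟨H, hH⟩ := Subgroup.exists_right_complement'_of_coprime (N := M) (by rw [hidx]; exact hcop.symm)
      have hcH : Nat.card H = n := by
        have := hH.card_mul_card
        rw [hg] at this
        exact Nat.eq_of_mul_eq_mul_left hqpos this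
      refine ⟨H, ?_⟩
      apply eq_of_subset_card
      · intro x hx
        have := pow_card_eq_one' (x := (⟨x, hx⟩ : H))
        rw [hcH] at this
        exact congrArg Subtype.val this
      · have h1 : Nat.card ↑(↑H : Set G) = n := hcH
        rw [h1]
        exact le_of_eq hcount
    · have hcKlt : Nat.card K < N := by
        rw [← hN]
        exact lt_of_le_of_ne (Subgroup.card_le_card_group K) (fun h => hKtop (Subgroup.eq_top_of_card_eq K h))
      have hcntK : Nat.card {x : K // x ^ n = 1} = n := by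
        refine Eq.trans ?_ hcount
        apply Nat.card_congr
        refine ⟨fun x => ⟨x.1.1, congrArg Subtype.val x.2⟩, fun x => ⟨⟨x.1, hLK x.1 x.2⟩, Subtype.ext x.2⟩, ?_, ?_⟩
        · intro x; rfl
        · intro x; rfl
      obtain ⟨H', hH'⟩ := ih _ hcKlt K rfl n (by rw [hcK]; exact dvd_mul_left _ _) hcntK
      refine ⟨H'.map K.subtype, ?_⟩
      ext x
      constructor
      · rintro ⟨y, hy, rfl⟩
        have : y ∈ (H' : Set K) := hy
        rw [hH'] at this
        exact congrArg Subtype.val this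
      · intro hx
        refine ⟨⟨x, hLK x hx⟩, ?_, rfl⟩
        have : (⟨x, hLK x hx⟩ : K) ∈ (H' : Set K) := by
          rw [hH']
          exact Subtype.ext hx
        exact this

end Cfsg.Agent.Lib.Helper1.FrobSolv

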