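import Mathlib
import Cfsg.Agent.Lib.Helper1.Wielandt
import Cfsg.Agent.Lib.Helper7.CharBurnside

set_option autoImplicit false

open Pointwise

namespace Cfsg.Agent.Lib.Helper1

universe u

theorem relIndex_eq_index_of_coprime {G : Type*} [Group G] [Finite G] (H K : Subgroup G)
    (h : H.index.Coprime K.index) : K.relIndex H = K.index := by
  have h1 := Cfsg.Agent.S0007.index_inf_of_coprime H K h
  have h3 : (H ⊓ K).index = K.relIndex H * H.index := by
    rw [← Subgroup.inf_relIndex_left, Subgroup.relIndex_mul_index inf_le_left]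
  rw [h1, mul_comm] at h3
  exact (Nat.eq_of_mul_eq_mul_right (Nat.pos_of_ne_zero Subgroup.index_ne_zero_of_finite) h3).symm

theorem hall_converse_aux : ∀ (n : ℕ) (G : Type u) [Group G] [Finite G], Nat.card G = n →
    (∀ p : ℕ, p.Prime → ∃ H : Subgroup G, (Nat.card H).Coprime p ∧ ∃ k, H.index = p ^ k) →
    Group.IsSolvable G := by
  intro n
  induction n using Nat.strong_induction_on with
  | _ n ih =>
    intro G _ _ hn hP
    rcases Nat.lt_or_ge 2 (Nat.card G).primeFactors.card with h3 | h2
    · obtain ⟨p₁, hp₁, p₂, hp₂, p₃, hp₃, h12, h13, h23⟩ := Finset.two_lt_card.mp h3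
      have key : ∀ p ∈ (Nat.card G).primeFactors, ∃ H : Subgroup G, Group.IsSolvable H ∧ ∃ k, H.index = p ^ k := by
        intro p hp
        have hpp := Nat.prime_of_mem_primeFactors hp
        obtain ⟨H, hHc, k, hk⟩ := hP p hpp
        refine ⟨H, ?_, k, hk⟩
        have hlt : Nat.card H < n := by
          rw [← hn]
          apply lt_of_le_of_ne (Subgroup.card_le_card_group H)
          intro h
          have h1 : p ∣ Nat.card H := h ▸ Nat.dvd_of_mem_primeFactors hp
          exact hpp.one_lt.ne' (Nat.eq_one_of_dvd_coprimes hHc h1 dvd_rfl)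
        apply ih _ hlt H rfl
        intro q hq
        by_cases hqp : q = p
        · refine ⟨⊤, ?_, 0, by simp⟩
          rw [Subgroup.card_top, hqp]; exact hHc
        · obtain ⟨K, hKc, j, hj⟩ := hP q hq
          refine ⟨K.subgroupOf H, ?_, j, ?_⟩
          · rw [card_subgroupOf']
            exact Nat.Coprime.coprime_dvd_left (Subgroup.card_dvd_of_le inf_le_left) hKc
          · change K.relIndex H = _
            rw [relIndex_eq_index_of_coprime H K, hj]
            rw [hk, hj]
            exact Nat.Coprime.pow _ _ ((Nat.coprime_primes hpp hq).mpr (Ne.symm hqp))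
      obtain ⟨H₁, hs₁, k₁, hk₁⟩ := key p₁ hp₁
      obtain ⟨H₂, hs₂, k₂, hk₂⟩ := key p₂ hp₂
      obtain ⟨H₃, hs₃, k₃, hk₃⟩ := key p₃ hp₃
      have hc : ∀ {p q a b : ℕ}, p ∈ (Nat.card G).primeFactors → q ∈ (Nat.card G).primeFactors → p ≠ q →
          (p ^ a).Coprime (q ^ b) := fun hp hq hne =>
        Nat.Coprime.pow _ _ ((Nat.coprime_primes (Nat.prime_of_mem_primeFactors hp)
          (Nat.prime_of_mem_primeFactors hq)).mpr hne)
      exact wielandt_aux _ G rfl H₁ H₂ H₃ hs₁ hs₂ hs₃
        (Cfsg.Agent.S0007.exists_mul_of_coprime H₁ H₂ (by rw [hk₁, hk₂]; exact hc hp₁ hp₂ h12))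
        (Cfsg.Agent.S0007.exists_mul_of_coprime H₁ H₃ (by rw [hk₁, hk₃]; exact hc hp₁ hp₃ h13))
        (by rw [hk₂, hk₃]; exact hc hp₂ hp₃ h23)
    · have hprod : ∏ p ∈ (Nat.card G).primeFactors, p ^ (Nat.card G).factorization p = Nat.card G :=
        Nat.prod_factorization_pow_eq_self Nat.card_pos.ne'
      have : ∃ p q a b : ℕ, p.Prime ∧ q.Prime ∧ Nat.card G = p ^ a * q ^ b := by
        have hcases : (Nat.card G).primeFactors.card = 0 ∨ (Nat.card G).primeFactors.card = 1 ∨
          (Nat.card G).primeFactors.card = 2 := by omega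
        rcases hcases with h | h | h
        · rw [Finset.card_eq_zero] at h
          rw [h, Finset.prod_empty] at hprod
          exact ⟨2, 2, 0, 0, Nat.prime_two, Nat.prime_two, by rw [← hprod]; simp⟩
        · obtain ⟨p, hp⟩ := Finset.card_eq_one.mp h
          have hpp : p.Prime := Nat.prime_of_mem_primeFactors (hp ▸ Finset.mem_singleton_self p)
          rw [hp, Finset.prod_singleton] at hprod
          exact ⟨p, 2, (Nat.card G).factorization p, 0, hpp, Nat.prime_two, by rw [pow_zero, mul_one]; exact hprod.symm⟩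
        · obtain ⟨p, q, hpq, hp⟩ := Finset.card_eq_two.mp h
          have hpp : p.Prime := Nat.prime_of_mem_primeFactors (hp ▸ Finset.mem_insert_self p _)
          have hqp : q.Prime := Nat.prime_of_mem_primeFactors
            (hp ▸ Finset.mem_insert_of_mem (Finset.mem_singleton_self q))
          rw [hp, Finset.prod_pair hpq] at hprod
          exact ⟨p, q, _, _, hpp, hqp, hprod.symm⟩
      obtain ⟨p, q, a, b, hp, hq, hc⟩ := this
      exact Cfsg.Agent.Lib.Helper7.CharBurnside.burnside_paqb p q a b hp hq hc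

end Cfsg.Agent.Lib.Helper1
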